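import Cfsg.Agent.AutTF4.Neg
import Cfsg.Agent.AutChev.TwD
import Cfsg.Agent.Tw4.Simp

set_option autoImplicit false
set_option maxRecDepth 100000
set_option linter.unusedSectionVars false
set_option linter.unusedVariables false

/-!
Automorphisms of the twisted groups of type F4: the blocks.
-/

namespace Cfsg.Agent.AutTF4

open Cfsg.Lie Cfsg.Agent.Chev Cfsg.Agent.ChevGrp Cfsg.Agent.ChevGrp.DData Cfsg.Agent.ChevTw Cfsg.Agent.ChevWeyl Cfsg.Agent.ChevU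
open Cfsg.Agent.AutChev Cfsg.Agent.Tw4

set_option synthInstance.maxHeartbeats 400000 in
set_option synthInstance.maxSize 10000 in
theorem orth_F4 : OrthTab chevF4 := by
  constructor
  · show ∀ i < 4, ∀ j < 4, chevF4.cartan i (chevF4.simple j) = 0 →
      (chevF4.commTerms (chevF4.simple i) (chevF4.simple j) = [] ∧
       chevF4.commTerms (chevF4.simple i) (chevF4.neg (chevF4.simple j)) = [] ∧
       chevF4.commTerms (chevF4.neg (chevF4.simple i)) (chevF4.simple j) = [] ∧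
       chevF4.commTerms (chevF4.neg (chevF4.simple i)) (chevF4.neg (chevF4.simple j)) = [])
    decide +kernel
  · show ∀ i < 4, ∀ j < 4, chevF4.cartan i (chevF4.simple j) = 0 →
      (chevF4.simple j ≠ chevF4.simple i ∧ chevF4.simple j ≠ chevF4.neg (chevF4.simple i) ∧ chevF4.neg (chevF4.simple j) ≠ chevF4.simple i ∧
       chevF4.neg (chevF4.simple j) ≠ chevF4.neg (chevF4.simple i) ∧ chevF4.simple j ≠ chevF4.neg (chevF4.neg (chevF4.simple i)) ∧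
       chevF4.neg (chevF4.simple j) ≠ chevF4.neg (chevF4.neg (chevF4.simple i)))
    decide +kernel

theorem cart03 : chevF4.cartan i0 (chevF4.simple i3) = 0 := by decide +kernel

variable {K : Type*} [Field K] (Z : Sg K)

/-- block of two roots -/
noncomputable def P0 : Rk0 K ↥(chevF4.group K) :=
  ((rk goodF4 (F := K) i0).toRk0.comap (Z.θ : K →+* K)).prod (rk goodF4 (F := K) i3).toRk0
    (fun s t => orth_xx goodF4 orth_F4 cart03 _ t) (fun s t => orth_xy goodF4 orth_F4 cart03 _ t)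
    (fun s t => orth_yx goodF4 orth_F4 cart03 _ t) (fun s t => orth_yy goodF4 orth_F4 cart03 _ t)

theorem P0_x (t : K) : (P0 Z).x t = eP Z t := by
  obtain ⟨p1, -, -, p2, n1, -, -, n2, -⟩ := simple_F4
  have q1 : chevF4.simple (i0 : ℕ) = 33 := p1
  have q2 : chevF4.simple (i3 : ℕ) = 24 := p2
  show xG goodF4.toGood2 (chevF4.simple i0) (Z.θ t) * xG goodF4.toGood2 (chevF4.simple i3) t = _
  rw [q1, q2]
  rfl

theorem P0_y (t : K) : (P0 Z).y t = eN Z t := by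
  obtain ⟨p1, -, -, p2, n1, -, -, n2, -⟩ := simple_F4
  have q1 : chevF4.simple (i0 : ℕ) = 33 := p1
  have q2 : chevF4.simple (i3 : ℕ) = 24 := p2
  show xG goodF4.toGood2 (chevF4.neg (chevF4.simple i0)) (Z.θ t) * xG goodF4.toGood2 (chevF4.neg (chevF4.simple i3)) t = _
  rw [q1, q2, n1, n2]
  rfl

theorem P0_inj (t : K) (h : (P0 Z).x t = 1) : t = 0 := by
  rw [P0_x] at h
  exact (PP_one _ _ h).2

/-- the parametrised root groups of the first block -/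
noncomputable def S0 : Sys (rtw (tF Z)) 0 K := mkSys (tF Z) (P0 Z)
  (fun x => (mem_X0 Z x).trans ⟨fun ⟨t, h⟩ => ⟨t, by rw [P0_x]; exact h.symm⟩, fun ⟨t, h⟩ => ⟨t, by rw [h, P0_x]⟩⟩)
  (fun x => (mem_X0n Z x).trans ⟨fun ⟨t, h⟩ => ⟨t, by rw [P0_y]; exact h.symm⟩, fun ⟨t, h⟩ => ⟨t, by rw [h, P0_y]⟩⟩)
  (P0_inj Z) (Rk0.y_inj_of _ (P0_inj Z))

/-- root elements in the twisted group -/
noncomputable def ep (t : K) : ↥(tF Z).G1 := ⟨eP Z t, eP_G1 Z t⟩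
/-- root elements in the twisted group -/
noncomputable def en (t : K) : ↥(tF Z).G1 := ⟨eN Z t, eN_G1 Z t⟩
/-- root elements in the twisted group -/
noncomputable def fp (t u : K) : ↥(tF Z).G1 := ⟨fP Z t u, fP_G1 Z t u⟩
/-- root elements in the twisted group -/
noncomputable def fn (t u : K) : ↥(tF Z).G1 := ⟨fN Z t u, fN_G1 Z t u⟩
/-- torus elements in the twisted group -/
noncomputable def hh0 (c : Kˣ) : ↥(tF Z).G1 := ⟨hb0 Z c, hb0_G1 Z c⟩

theorem S0_x (t : K) : (S0 Z).A.x t = ep Z t := Subtype.ext (P0_x Z t)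
theorem S0_y (t : K) : (S0 Z).A.y t = en Z t := Subtype.ext (P0_y Z t)

theorem mem_p0 (x : ↥(tF Z).G1) : x ∈ (rtw (tF Z)).X (S16.p 0) ↔ ∃ t, x = ep Z t := by
  rw [(S0 Z).mem_p]
  exact exists_congr fun t => by rw [S0_x]

theorem mem_n0 (x : ↥(tF Z).G1) : x ∈ (rtw (tF Z)).X (S16.neg (S16.p 0)) ↔ ∃ t, x = en Z t := by
  rw [(S0 Z).mem_n]
  exact exists_congr fun t => by rw [S0_y]

theorem mem_p1 (x : ↥(tF Z).G1) : x ∈ (rtw (tF Z)).X (S16.p 1) ↔ ∃ t u, x = fp Z t u := by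
  refine (mem_X1 Z x).trans ?_
  constructor
  · rintro ⟨t, u, h⟩; exact ⟨t, u, Subtype.ext h.symm⟩
  · rintro ⟨t, u, rfl⟩; exact ⟨t, u, rfl⟩

theorem mem_n1 (x : ↥(tF Z).G1) : x ∈ (rtw (tF Z)).X (S16.neg (S16.p 1)) ↔ ∃ t u, x = fn Z t u := by
  refine (mem_X1n Z x).trans ?_
  constructor
  · rintro ⟨t, u, h⟩; exact ⟨t, u, Subtype.ext h.symm⟩
  · rintro ⟨t, u, rfl⟩; exact ⟨t, u, rfl⟩

theorem fp_inj {t u t' u' : K} (h : fp Z t u = fp Z t' u') : t = t' ∧ u = u' := by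
  have e1 : fP Z t u = fP Z t' u' := congrArg Subtype.val h
  obtain ⟨e2, e3, e4, e5⟩ := (quadP Z.two).inj_of (WP_one Z.two) _ _ _ _ _ _ _ _ e1
  subst e3
  exact ⟨rfl, add_left_cancel e4⟩

theorem ep_inj {t t' : K} (h : ep Z t = ep Z t') : t = t' := by
  rw [← S0_x, ← S0_x] at h
  exact (S0 Z).A.x_injective h

/-- multiplication in the second block -/
theorem fp_mul (t u t' u' : K) : fp Z t u * fp Z t' u' = fp Z (t + t') (u + u' + Z.θ t * t') := by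
  apply Subtype.ext
  show fP Z t u * fP Z t' u' = _
  have h2 := Z.two
  have h5 : ∀ x, Z.θ (Z.θ x) ^ 2 = x := Z.hθ
  show fP Z t u * fP Z t' u' = fP Z (t + t') (u + u' + Z.θ t * t')
  unfold fP Quad.Fx
  rw [Quad.W_mul]
  congr 1
  · rw [map_add]
  · rw [map_add]
    linear_combination (-Z.θ t * t') * h2
  · rw [map_add, map_add, map_mul]
    have e : (Z.θ u + Z.θ u' + Z.θ (Z.θ t) * Z.θ t') ^ 2 =
        Z.θ u ^ 2 + Z.θ u' ^ 2 + Z.θ (Z.θ t) ^ 2 * Z.θ t' ^ 2 := by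
      linear_combination (Z.θ u * Z.θ u' + Z.θ u * (Z.θ (Z.θ t) * Z.θ t') + Z.θ u' * (Z.θ (Z.θ t) * Z.θ t')) * h2
    rw [e, h5]
    ring

theorem fp_zero : fp Z 0 0 = 1 := by
  have h := fp_mul Z 0 0 0 0
  rw [add_zero, map_zero, zero_mul, add_zero] at h
  exact mul_eq_left.1 h

theorem hh0_fp (c : Kˣ) (t u : K) : hh0 Z c * fp Z t u * (hh0 Z c)⁻¹ = fp Z ((c : K)⁻¹ * t) ((Z.θ c * c)⁻¹ * u) :=
  Subtype.ext (hb0_fP Z c t u)

theorem hh0_ep (c : Kˣ) (t : K) : hh0 Z c * ep Z t * (hh0 Z c)⁻¹ = ep Z ((c : K) ^ 2 * t) :=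
  Subtype.ext (hb0_eP Z c t)

theorem hh0_eq (c : Kˣ) : hh0 Z c = (ep Z c * en Z (c : K)⁻¹ * ep Z c) * (ep Z 1 * en Z 1 * ep Z 1) :=
  Subtype.ext (hb0_eq Z c)

theorem hh0_H (c : Kˣ) : hh0 Z c ∈ (rtw (tF Z)).H := (mem_rtw_H (tF Z)).2 (hb0_H Z c)

theorem nn1_eq : (rtw (tF Z)).nn 1 = fp Z 0 1 * fn Z 0 1 * fp Z 0 1 * fn Z 0 1 * fp Z 0 1 := Subtype.ext (nd1_eq Z)

end Cfsg.Agent.AutTF4
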