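import Cfsg.Agent.AutTF4.Uniq

set_option autoImplicit false
set_option maxRecDepth 100000
set_option linter.unusedSectionVars false
set_option linter.unusedVariables false

/-!
The outer automorphism group of the twisted groups of type F4.
-/

namespace Cfsg.Agent.AutTF4

open Cfsg.Lie Cfsg.Agent.Chev Cfsg.Agent.ChevGrp Cfsg.Agent.ChevGrp.DData Cfsg.Agent.ChevTw Cfsg.Agent.ChevWeyl Cfsg.Agent.ChevU
open Cfsg.Agent.AutChev Cfsg.Agent.Tw4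

variable {K : Type*} [Field K] {Z : Sg K}

theorem card_p1 [Finite K] : Nat.card ((rtw (tF Z)).X (S16.p 1)) = Nat.card K ^ 2 := by
  rw [sq, ← Nat.card_prod]
  refine (Nat.card_congr (Equiv.ofBijective (fun p : K × K => (⟨fp Z p.1 p.2, (mem_p1 Z _).2 ⟨p.1, p.2, rfl⟩⟩ :
    (rtw (tF Z)).X (S16.p 1))) ⟨?_, ?_⟩)).symm
  · rintro ⟨t, u⟩ ⟨t', u'⟩ e
    obtain ⟨e1, e2⟩ := fp_inj Z (congrArg Subtype.val e)
    exact Prod.ext e1 e2
  · rintro ⟨x, hx⟩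
    obtain ⟨t, u, rfl⟩ := (mem_p1 Z x).1 hx
    exact ⟨(t, u), rfl⟩

theorem perm_one [Finite K] {φ : ↥(tF Z).G1 ≃* ↥(tF Z).G1} (h : PUV (rtw (tF Z)) φ) (j : Fin 2) :
    ((rtw (tF Z)).X (S16.p j)).map φ.toMonoidHom = (rtw (tF Z)).X (S16.p j) ∧
    ((rtw (tF Z)).X (S16.neg (S16.p j))).map φ.toMonoidHom = (rtw (tF Z)).X (S16.neg (S16.p j)) := by
  have hfin : Finite (GL chevF4.Idx K) := inferInstance
  obtain ⟨ρ, hρ⟩ := h.exists_perm_X (rtw_Grp _)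
  have c0 : Nat.card ((rtw (tF Z)).X (S16.p 0)) = Nat.card K := (S0 Z).card
  have c1 : Nat.card ((rtw (tF Z)).X (S16.p 1)) = Nat.card K ^ 2 := card_p1
  have hK1 : 1 < Nat.card K := Finite.one_lt_card
  have h0 : ρ 0 = 0 := by
    rcases j_cases (ρ 0) with h | h
    · exact h
    · exfalso
      have h1 : Nat.card ((rtw (tF Z)).X (S16.p (ρ 0))) = Nat.card K := by
        rw [← (hρ 0).1, Subgroup.card_map_of_injective φ.injective, c0]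
      rw [h, c1, sq] at h1
      nlinarith
  have key : ∀ ρ : Equiv.Perm (Fin 2), ρ 0 = 0 → ρ = 1 := by decide
  have h1 := key ρ h0
  subst h1
  exact hρ j

theorem exists_data [Finite K] {φ : ↥(tF Z).G1 ≃* ↥(tF Z).G1} (h : PUV (rtw (tF Z)) φ) :
    ∃ (σ : K ≃+* K) (c0 c1 : Kˣ), (∀ t, φ (ep Z t) = ep Z ((c0 : K) * σ t)) ∧
      (∀ t, φ (en Z t) = en Z ((c0 : K)⁻¹ * σ t)) ∧ ∃ b, φ (fp Z 1 0) = fp Z (c1 : K) b := by
  obtain ⟨c0, σ, n0, a0, b0⟩ := (S0 Z).dat (perm_one h 0).1 (perm_one h 0).2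
  obtain ⟨c1, b, hb⟩ := (mem_p1 Z _).1 ((mem_of_map_eq (perm_one h 1).1).2 ((mem_p1 Z _).2 ⟨1, 0, rfl⟩))
  have hc1 : c1 ≠ 0 := by
    rintro rfl
    have h1 : φ (fp Z 1 0 * fp Z 1 0) = 1 := by
      rw [map_mul, hb, fp_sq, map_zero, zero_mul, fp_zero]
    rw [← map_one φ] at h1
    exact one_ne_zero (fp_sq_one Z (φ.injective h1))
  refine ⟨σ, Units.mk0 c0 n0, Units.mk0 c1 hc1, fun t => ?_, fun t => ?_, b, hb⟩
  · have := a0 t
    rwa [S0_x, S0_x] at this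
  · have := b0 t
    rwa [S0_y, S0_y] at this

/-- upper bound -/
theorem card_le [Finite K] (hc : ∃ c : Kˣ, c ≠ 1) :
    Nat.card (A0 (rtw (tF Z))) ≤ Nat.card ((K ≃+* K) × Kˣ × Kˣ) := by
  have hfin : Finite (GL chevF4.Idx K) := inferInstance
  have hf2 : Finite (K ≃+* K) := Finite.of_injective (fun σ => (σ : K → K)) DFunLike.coe_injective
  have hex : ∀ θ : A0 (rtw (tF Z)), ∃ d : (K ≃+* K) × Kˣ × Kˣ, (∀ t, (θ : MulAut _) (ep Z t) = ep Z ((d.2.1 : K) * d.1 t)) ∧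
      (∀ t, (θ : MulAut _) (en Z t) = en Z ((d.2.1 : K)⁻¹ * d.1 t)) ∧ ∃ b, (θ : MulAut _) (fp Z 1 0) = fp Z (d.2.2 : K) b := by
    intro θ
    have hθ : PUV (rtw (tF Z)) (θ : ↥(tF Z).G1 ≃* ↥(tF Z).G1) := θ.2
    obtain ⟨σ, c0, c1, h1, h2, h3⟩ := exists_data hθ
    exact ⟨(σ, c0, c1), h1, h2, h3⟩
  choose f h1 h2 h3 using hex
  refine Nat.card_le_card_of_injective f ?_
  rintro θ θ' e
  have hθ : PUV (rtw (tF Z)) (θ : MulAut _) := θ.2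
  have hθ' : PUV (rtw (tF Z)) (θ' : MulAut _) := θ'.2
  have hχ : PUV (rtw (tF Z)) ((θ : ↥(tF Z).G1 ≃* ↥(tF Z).G1).trans (θ' : ↥(tF Z).G1 ≃* ↥(tF Z).G1).symm) :=
    hθ.trans hθ'.symm
  obtain ⟨b, hb⟩ := h3 θ
  obtain ⟨b', hb'⟩ := h3 θ'
  rw [← e] at hb'
  have g1 : ∀ t, (θ' : ↥(tF Z).G1 ≃* ↥(tF Z).G1).symm ((θ : ↥(tF Z).G1 ≃* ↥(tF Z).G1) (ep Z t)) = ep Z t := by
    intro t
    rw [MulEquiv.symm_apply_eq]
    exact (h1 θ t).trans (by rw [e]; exact (h1 θ' t).symm)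
  have g2 : ∀ t, (θ' : ↥(tF Z).G1 ≃* ↥(tF Z).G1).symm ((θ : ↥(tF Z).G1 ≃* ↥(tF Z).G1) (en Z t)) = en Z t := by
    intro t
    rw [MulEquiv.symm_apply_eq]
    exact (h2 θ t).trans (by rw [e]; exact (h2 θ' t).symm)
  obtain ⟨a, v, hav⟩ := (mem_p1 Z _).1 ((mem_of_map_eq (perm_one hθ'.symm 1).1).2 ((mem_p1 Z _).2 ⟨0, b' + b, rfl⟩))
  have ha : a = 0 := by
    apply fp_sq_one Z (u := v)
    rw [← hav, ← map_mul, fp_sq, map_zero, zero_mul, fp_zero, map_one]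
  subst ha
  have g3 : (θ' : ↥(tF Z).G1 ≃* ↥(tF Z).G1).symm ((θ : ↥(tF Z).G1 ≃* ↥(tF Z).G1) (fp Z 1 0)) = fp Z 1 v := by
    have e1 : fp Z ((f θ).2.2 : K) b = fp Z ((f θ).2.2 : K) b' * fp Z 0 (b' + b) := by
      rw [fp_split]
      congr 1
      linear_combination -b' * Z.two
    have e2 : (θ' : ↥(tF Z).G1 ≃* ↥(tF Z).G1).symm (fp Z ((f θ).2.2 : K) b') = fp Z 1 0 := by
      rw [MulEquiv.symm_apply_eq]; exact hb'.symm
    have e3 : (θ : ↥(tF Z).G1 ≃* ↥(tF Z).G1) (fp Z 1 0) = fp Z ((f θ).2.2 : K) b := hb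
    rw [e3, e1, map_mul, e2, hav, fp_split, zero_add]
  have g4 := eq_refl_of hc hχ (perm_one hχ 1).1 (perm_one hχ 1).2 g1 g2 g3
  apply Subtype.ext
  apply MulEquiv.ext
  intro x
  have g5 := DFunLike.congr_fun g4 x
  change (θ' : ↥(tF Z).G1 ≃* ↥(tF Z).G1).symm ((θ : ↥(tF Z).G1 ≃* ↥(tF Z).G1) x) = x at g5
  rw [MulEquiv.symm_apply_eq] at g5
  exact g5

section field

variable (τ : K ≃+* K) (hτ : ∀ t, τ (Z.θ t) = Z.θ (τ t))

include hτ in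
theorem fAut_eP (t : K) : fAut chevF4 τ (eP Z t) = eP Z (τ t) := by
  unfold eP
  rw [map_mul, ← hτ]
  exact congrArg₂ (· * ·) (fAut_xG goodF4.toGood2 τ 33 _) (fAut_xG goodF4.toGood2 τ 24 _)

include hτ in
theorem fAut_eN (t : K) : fAut chevF4 τ (eN Z t) = eN Z (τ t) := by
  unfold eN
  rw [map_mul, ← hτ]
  exact congrArg₂ (· * ·) (fAut_xG goodF4.toGood2 τ 14 _) (fAut_xG goodF4.toGood2 τ 23 _)

include hτ in
theorem fAut_fP (t u : K) : fAut chevF4 τ (fP Z t u) = fP Z (τ t) (τ u) := by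
  have h : ∀ r (t : K), fAut chevF4 τ (xF r t) = xF r (τ t) := fun r t => fAut_xG goodF4.toGood2 τ r t
  unfold fP Quad.Fx
  rw [Quad.W_def, Quad.W_def, map_mul, map_mul, map_mul, h, h, h, h, ← hτ, ← hτ, map_add, map_mul, map_pow]

include hτ in
theorem fAut_fN (t u : K) : fAut chevF4 τ (fN Z t u) = fN Z (τ t) (τ u) := by
  have h : ∀ r (t : K), fAut chevF4 τ (xF r t) = xF r (τ t) := fun r t => fAut_xG goodF4.toGood2 τ r t
  unfold fN Quad.Fx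
  rw [Quad.W_def, Quad.W_def, map_mul, map_mul, map_mul, h, h, h, h, ← hτ, ← hτ, map_add, map_mul, map_pow]

include hτ in
theorem fAut_mem [Finite K] (x : ↥(chevF4.group K)) : fAut chevF4 τ x ∈ (tF Z).G1 ↔ x ∈ (tF Z).G1 := by
  have hfin : Finite (GL chevF4.Idx K) := inferInstance
  refine mem_iff_of_gen (G1_closure Z) _ ?_ x
  rintro y (⟨t, h | h⟩ | ⟨t, u, h | h⟩)
  · rw [← h, fAut_eP τ hτ]; exact eP_G1 Z _
  · rw [← h, fAut_eN τ hτ]; exact eN_G1 Z _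
  · rw [← h, fAut_fP τ hτ]; exact fP_G1 Z _ _
  · rw [← h, fAut_fN τ hτ]; exact fN_G1 Z _ _

end field

/-- field automorphisms of the twisted group -/
noncomputable def fA [Finite K] (τ : K ≃+* K) (hτ : ∀ t, τ (Z.θ t) = Z.θ (τ t)) : ↥(tF Z).G1 ≃* ↥(tF Z).G1 :=
  resAut (tF Z).G1 (fAut chevF4 τ) (fAut_mem τ hτ)

theorem fA_ep [Finite K] (τ : K ≃+* K) (hτ : ∀ t, τ (Z.θ t) = Z.θ (τ t)) (t : K) : fA τ hτ (ep Z t) = ep Z (τ t) :=
  Subtype.ext (fAut_eP τ hτ t)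

theorem H_ep {k : ↥(tF Z).G1} (hk : k ∈ (rtw (tF Z)).H) : ∃ a : Kˣ, ∀ t, k * ep Z t * k⁻¹ = ep Z ((a : K) * t) := by
  have h1 : (k : ↥(chevF4.group K)) ∈ (RF K).H := (mem_rtw_H (tF Z)).1 hk
  obtain ⟨χ, hχ⟩ := (AF K).H_char h1
  refine ⟨χ ⟨24, by decide⟩, fun t => ?_⟩
  have h2 : k * ep Z t * k⁻¹ ∈ (rtw (tF Z)).X (S16.p 0) := (rtw (tF Z)).H_X k hk _ _ ((mem_p0 Z _).2 ⟨t, rfl⟩)
  obtain ⟨t', ht'⟩ := (mem_p0 Z _).1 h2
  rw [ht']
  congr 1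
  have h3 : (k : ↥(chevF4.group K)) * eP Z t * (k : ↥(chevF4.group K))⁻¹ = eP Z t' := congrArg Subtype.val ht'
  have h4 : (k : ↥(chevF4.group K)) * eP Z t * (k : ↥(chevF4.group K))⁻¹ =
      xF 33 ((χ ⟨33, by decide⟩ : K) * Z.θ t) * xF 24 ((χ ⟨24, by decide⟩ : K) * t) := by
    unfold eP
    rw [conj_mul2]
    exact congrArg₂ (· * ·) (hχ ⟨33, by decide⟩ _) (hχ ⟨24, by decide⟩ _)
  rw [h4] at h3
  unfold eP at h3
  have e2 : xF 33 ((χ ⟨33, by decide⟩ : K) * Z.θ t + Z.θ t') * xF 24 ((χ ⟨24, by decide⟩ : K) * t + t') = 1 := by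
    rw [xF_add (by norm_num), xF_add (by norm_num)]
    calc xF 33 ((χ ⟨33, by decide⟩ : K) * Z.θ t) * xF 33 (Z.θ t') * (xF 24 ((χ ⟨24, by decide⟩ : K) * t) * xF 24 t')
        = xF 33 ((χ ⟨33, by decide⟩ : K) * Z.θ t) * (xF 33 (Z.θ t') * xF 24 ((χ ⟨24, by decide⟩ : K) * t)) * xF 24 t' := by
          group
      _ = (xF 33 ((χ ⟨33, by decide⟩ : K) * Z.θ t) * xF 24 ((χ ⟨24, by decide⟩ : K) * t)) * (xF 33 (Z.θ t') * xF 24 t') := by
          rw [← c33_24]; group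
      _ = (xF 33 (Z.θ t') * xF 24 t') * (xF 33 (Z.θ t') * xF 24 t') := by rw [h3]
      _ = xF 33 (Z.θ t') * (xF 24 t' * xF 33 (Z.θ t')) * xF 24 t' := by group
      _ = (xF 33 (Z.θ t') * xF 33 (Z.θ t')) * (xF 24 t' * xF 24 t') := by rw [c33_24]; group
      _ = 1 := by rw [xF_sq Z.two (by norm_num), xF_sq Z.two (by norm_num), mul_one]
  have e3 := (PP_one _ _ e2).2
  linear_combination e3 - ((χ ⟨24, by decide⟩ : K) * t) * Z.two

/-- lower bound -/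
theorem le_card [Finite K] (hτ : ∀ (τ : K ≃+* K) t, τ (Z.θ t) = Z.θ (τ t))
    (hz : ∀ h ∈ (rtw (tF Z)).H, (∀ x, h * x * h⁻¹ = x) → h = 1) :
    Nat.card ((rtw (tF Z)).H × (K ≃+* K)) ≤ Nat.card (A0 (rtw (tF Z))) := by
  have hfin : Finite (GL chevF4.Idx K) := inferInstance
  have hf3 : Finite ↥(tF Z).G1 := inferInstance
  have hf2 : Finite (MulAut ↥(tF Z).G1) := Finite.of_injective (fun σ => (σ : ↥(tF Z).G1 → ↥(tF Z).G1)) DFunLike.coe_injective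
  have hp : ∀ (k : (rtw (tF Z)).H) (τ : K ≃+* K), (MulAut.conj (k : ↥(tF Z).G1) * (fA τ (hτ τ) : MulAut ↥(tF Z).G1)) ∈
      A0 (rtw (tF Z)) := fun k τ => mul_mem ((conj_mem_A0 (rtw_Grp _)).2 k.2) (puv_res _ (puv_fAut dF4 goodF4 τ) _)
  refine Nat.card_le_card_of_injective (fun p => (⟨_, hp p.1 p.2⟩ : A0 (rtw (tF Z)))) ?_
  rintro ⟨k, τ⟩ ⟨k', τ'⟩ e
  have e0 : MulAut.conj (k : ↥(tF Z).G1) * (fA τ (hτ τ) : MulAut ↥(tF Z).G1) =
    MulAut.conj (k' : ↥(tF Z).G1) * (fA τ' (hτ τ') : MulAut ↥(tF Z).G1) := congrArg Subtype.val e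
  obtain ⟨a, ha⟩ := H_ep k.2
  obtain ⟨a', ha'⟩ := H_ep k'.2
  have e1 : ∀ t, (a : K) * τ t = (a' : K) * τ' t := by
    intro t
    have h1 := DFunLike.congr_fun e0 (ep Z t)
    change (k : ↥(tF Z).G1) * fA τ (hτ τ) (ep Z t) * (k : ↥(tF Z).G1)⁻¹ =
      (k' : ↥(tF Z).G1) * fA τ' (hτ τ') (ep Z t) * (k' : ↥(tF Z).G1)⁻¹ at h1
    rw [fA_ep, fA_ep, ha, ha'] at h1
    exact ep_inj Z h1
  have e2 : (a : K) = a' := by
    have := e1 1
    rwa [map_one, map_one, mul_one, mul_one] at this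
  have e3 : τ = τ' := by
    ext t
    have := e1 t
    rw [e2] at this
    exact mul_left_cancel₀ (Units.ne_zero a') this
  subst e3
  have e4 : MulAut.conj (k : ↥(tF Z).G1) = MulAut.conj (k' : ↥(tF Z).G1) := mul_right_cancel e0
  have e5 : (k' : ↥(tF Z).G1)⁻¹ * k = 1 := by
    refine hz _ (mul_mem (inv_mem k'.2) k.2) fun x => ?_
    have h1 : (k : ↥(tF Z).G1) * x * (k : ↥(tF Z).G1)⁻¹ = k' * x * (k' : ↥(tF Z).G1)⁻¹ := DFunLike.congr_fun e4 x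
    calc (k' : ↥(tF Z).G1)⁻¹ * k * x * ((k' : ↥(tF Z).G1)⁻¹ * k)⁻¹
        = (k' : ↥(tF Z).G1)⁻¹ * (k * x * (k : ↥(tF Z).G1)⁻¹) * k' := by group
      _ = x := by rw [h1]; group
  rw [Subtype.ext (inv_mul_eq_one.1 e5).symm]

/-- the order of the outer automorphism group -/
theorem card_out_F4 [Fintype K] {m : ℕ} (hm : 1 ≤ m) (hK : Fintype.card K = 2 ^ (2 * m + 1)) :
    Nat.card (Cfsg.Out ↥(twistedF4 K (2 ^ m))) = 2 * m + 1 := by
  classical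
  obtain ⟨Z, hZ⟩ := exists_Sg hK
  obtain ⟨RF⟩ := nonempty_rootFacts (D := chevF4) (by simp)
  have : Fact (Nat.Prime 2) := ⟨Nat.prime_two⟩
  have hch : CharP K 2 := charP_of_card_eq_prime_pow hK
  have hfin : Finite (GL chevF4.Idx K) := inferInstance
  have hG : (tF Z).G1 = (twistedF4 K (2 ^ m)).subgroupOf (chevF4.group K) := hG_F4 Z hZ
  let e : ↥(tF Z).G1 ≃* ↥(twistedF4 K (2 ^ m)) := (MulEquiv.subgroupCongr hG).trans (Subgroup.subgroupOfEquivOfLe hle_F4)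
  obtain ⟨hs, hna⟩ := simp_F4 hm hK
  have hs' : IsSimpleGroup ↥(tF Z).G1 := by
    have := hs
    exact e.isSimpleGroup
  have hna' : ¬ IsMulCommutative ↥(tF Z).G1 := by
    intro h
    apply hna
    refine ⟨⟨fun a b => ?_⟩⟩
    have h1 := h.is_comm.comm (e.symm a) (e.symm b)
    rw [← map_mul, ← map_mul] at h1
    exact e.symm.injective h1
  have h1 := card_out_tw dF4 goodF4 RF (tF Z) hs' hna'
  rw [card_out_congr e] at h1
  have hz : ∀ h ∈ (rtw (tF Z)).H, (∀ x, h * x * h⁻¹ = x) → h = 1 := by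
    intro h hh hx
    have h1 : h ∈ Subgroup.center ↥(tF Z).G1 := by
      rw [Subgroup.mem_center_iff]
      intro x
      have := hx x
      rw [mul_inv_eq_iff_eq_mul] at this
      exact this.symm
    rcases Subgroup.Normal.eq_bot_or_eq_top (inferInstance : (Subgroup.center ↥(tF Z).G1).Normal) with h2 | h2
    · rw [h2] at h1
      exact Subgroup.mem_bot.1 h1
    · exfalso
      apply hna'
      refine ⟨⟨fun a b => ?_⟩⟩
      have : a ∈ Subgroup.center ↥(tF Z).G1 := by rw [h2]; trivial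
      exact (Subgroup.mem_center_iff.1 this b).symm
  have hτ : ∀ (τ : K ≃+* K) t, τ (Z.θ t) = Z.θ (τ t) := by
    intro τ t; rw [hZ, hZ, map_pow]
  have hF : Nat.card (K ≃+* K) = 2 * m + 1 := card_ringAut 2 hK
  have hH : Nat.card (rtw (tF Z)).H = Nat.card Kˣ ^ 2 := by
    rw [← card_H1 Z]
    exact Nat.card_congr (Subgroup.subgroupOfEquivOfLe inf_le_right).toEquiv
  have hc : ∃ c : Kˣ, c ≠ 1 := by
    have h2 : Nat.card Kˣ = 2 ^ (2 * m + 1) - 1 := by rw [Nat.card_units, Nat.card_eq_fintype_card, hK]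
    have h3 : 2 ^ 3 ≤ 2 ^ (2 * m + 1) := Nat.pow_le_pow_right (by norm_num) (by omega)
    have h4 : 1 < Nat.card Kˣ := by rw [h2]; omega
    have := (Finite.one_lt_card_iff_nontrivial (α := Kˣ)).1 h4
    exact exists_ne 1
  have h5 := card_le (Z := Z) hc
  have h6 := le_card hτ hz
  rw [Nat.card_prod, Nat.card_prod, hF] at h5
  rw [Nat.card_prod, hF, hH] at h6
  rw [hH] at h1
  have h7 : Nat.card (A0 (rtw (tF Z))) = (2 * m + 1) * Nat.card Kˣ ^ 2 := by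
    apply le_antisymm
    · calc _ ≤ _ := h5
        _ = _ := by ring
    · calc _ = _ := mul_comm _ _
        _ ≤ _ := h6
  rw [h7] at h1
  have hpos : 0 < Nat.card Kˣ ^ 2 := pow_pos Nat.card_pos 2
  exact Nat.eq_of_mul_eq_mul_right hpos h1

end Cfsg.Agent.AutTF4
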