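import Cfsg.Agent.AutChev.Par
import Cfsg.Agent.AutChev.Outer

set_option autoImplicit false

/-!
Automorphisms preserving `U` and `V` and fixing a simple root group elementwise fix the opposite one.
-/

namespace Cfsg.Agent.AutTF4

open Cfsg.Agent.ChevGrp Cfsg.Agent.ChevGrp.RGrp Cfsg.Agent.AutChev

variable {l n : ℕ} {S : WSys l n} {G : Type*} [Group G] {R : RGrp S G} {θ : G ≃* G}

lemma nn_not_B (i : Fin l) : R.nn i ∉ R.B := by
  intro h1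
  have h2 := B_inf_N h1 (R.nn_mem_N i)
  have h3 := (act_nn (R := R) i).unique (act_H h2)
  have h4 := S.w_p i
  rw [h3, Equiv.Perm.one_apply] at h4
  have h5 := S.pos_p i
  rw [h4, S.pos_neg_iff] at h5
  exact h5 (S.pos_p i)

/-- the image of the reflection -/
theorem map_nn (h : PUV R θ) (hG : R.Grp = ⊤) {i : Fin l} (hP : θ (R.nn i) ∈ R.mpar i)
    (hfr : ∀ x ∈ R.X (S.p i), (∀ k ∈ R.H, k * x * k⁻¹ = x) → x = 1) : ∃ β ∈ R.B, θ (R.nn i) = β * R.nn i := by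
  have hnB : θ (R.nn i) ∉ R.B := by rw [h.mem_B hG]; exact nn_not_B i
  obtain ⟨b, hb, b', hb', e⟩ := (mem_mpar.1 hP).resolve_left hnB
  have h1 : b' ∈ R.H ⊔ R.U := by
    have : R.B = R.H ⊔ R.U := sup_comm _ _
    rw [← this]; exact hb'
  obtain ⟨k, hk, u, hu, rfl⟩ := mem_sup_of_normalizes (A := R.H) (C := R.U)
    (fun a ha c hc => B_norm_U (R.H_le_B ha) c hc) h1
  obtain ⟨v, hv, x, hx, rfl⟩ := mem_U' i hu
  have e2 : θ (R.nn i) = (b * ((R.nn i * k * (R.nn i)⁻¹) * (R.nn i * v * (R.nn i)⁻¹))) * R.nn i * x := by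
    rw [e]; group
  have hβ : b * ((R.nn i * k * (R.nn i)⁻¹) * (R.nn i * v * (R.nn i)⁻¹)) ∈ R.B :=
    mul_mem hb (mul_mem (R.H_le_B (R.nn_H i k hk)) (R.U_le_B (R.Ui_le_U i (nn_Ui i v hv))))
  set β := b * ((R.nn i * k * (R.nn i)⁻¹) * (R.nn i * v * (R.nn i)⁻¹)) with hβdef
  refine ⟨β, hβ, ?_⟩
  have hx1 : x = 1 := by
    refine hfr x hx fun k hk => ?_
    -- `k = θ k'`
    have h2 : θ.symm k ∈ R.H := by rw [← h.mem_H hG, MulEquiv.apply_symm_apply]; exact hk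
    have h3 := R.nn_H i _ h2
    rw [← h.mem_H hG, map_mul, map_mul, map_inv, MulEquiv.apply_symm_apply, e2] at h3
    have h4 : R.nn i * (x * (k * x⁻¹ * k⁻¹)) * (R.nn i)⁻¹ ∈ R.B := by
      have e3 : R.nn i * (x * (k * x⁻¹ * k⁻¹)) * (R.nn i)⁻¹ =
          β⁻¹ * (β * R.nn i * x * k * (β * R.nn i * x)⁻¹) * β * (R.nn i * k * (R.nn i)⁻¹)⁻¹ := by group
      rw [e3]
      exact mul_mem (mul_mem (mul_mem (inv_mem hβ) (R.H_le_B h3)) hβ) (inv_mem (R.H_le_B (R.nn_H i k hk)))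
    have hz : x * (k * x⁻¹ * k⁻¹) ∈ R.X (S.p i) := mul_mem hx (R.H_X k hk _ _ (inv_mem hx))
    have h5 : R.nn i * (x * (k * x⁻¹ * k⁻¹)) * (R.nn i)⁻¹ ∈ R.V := by
      have := R.nn_X i _ _ hz
      rw [S.w_p] at this
      exact R.X_le_V (by rw [S.pos_neg_iff, not_not]; exact S.pos_p i) this
    have h6 := R.B_inf_V h4 h5
    have h7 : x * (k * x⁻¹ * k⁻¹) = 1 := by
      have : x * (k * x⁻¹ * k⁻¹) = (R.nn i)⁻¹ * (R.nn i * (x * (k * x⁻¹ * k⁻¹)) * (R.nn i)⁻¹) * R.nn i := by group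
      rw [this, h6]; group
    calc k * x * k⁻¹ = (k * x⁻¹ * k⁻¹)⁻¹ := by group
      _ = x := (mul_eq_one_iff_eq_inv.1 h7).symm
  rw [e2, hx1, mul_one]

/-- the opposite root group is fixed -/
theorem fix_neg (h : PUV R θ) (hG : R.Grp = ⊤) {i : Fin l} (hP : θ (R.nn i) ∈ R.mpar i)
    (hfr : ∀ x ∈ R.X (S.p i), (∀ k ∈ R.H, k * x * k⁻¹ = x) → x = 1) (hfix : ∀ x ∈ R.X (S.p i), θ x = x) :
    ∀ y ∈ R.X (S.neg (S.p i)), θ y = y := by
  intro y hy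
  by_cases hy1 : y = 1
  · rw [hy1, map_one]
  obtain ⟨β, hβ, e⟩ := map_nn h hG hP hfr
  obtain ⟨a, ha, k, hk, b, hb, e2⟩ := R.rank1 i y hy hy1
  have h1 : θ y * y⁻¹ ∈ R.B := by
    rw [e2, map_mul, map_mul, map_mul, hfix a ha, hfix b hb, e]
    have e3 : a * (β * R.nn i) * θ k * b * (a * R.nn i * k * b)⁻¹ = a * β * (R.nn i * (θ k * k⁻¹) * (R.nn i)⁻¹) * a⁻¹ := by
      group
    rw [e3]
    have haB := R.U_le_B (R.X_le_U (S.pos_p i) ha)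
    exact mul_mem (mul_mem (mul_mem haB hβ) (R.H_le_B (R.nn_H i _ (mul_mem ((h.mem_H hG).2 hk) (inv_mem hk))))) (inv_mem haB)
  have hyV : y ∈ R.V := R.X_le_V (by rw [S.pos_neg_iff, not_not]; exact S.pos_p i) hy
  have h2 : θ y * y⁻¹ ∈ R.V := mul_mem (h.mem_V.2 hyV) (inv_mem hyV)
  exact mul_inv_eq_one.1 (R.B_inf_V h1 h2)

end Cfsg.Agent.AutTF4
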