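import Cfsg.Agent.AutTF4.Blk

set_option autoImplicit false
set_option maxRecDepth 100000
set_option linter.unusedSectionVars false
set_option linter.unusedVariables false

/-!
Automorphisms of the twisted groups of type F4: an automorphism is determined by three parameters.
-/

namespace Cfsg.Agent.AutTF4

open Cfsg.Lie Cfsg.Agent.Chev Cfsg.Agent.ChevGrp Cfsg.Agent.ChevGrp.DData Cfsg.Agent.ChevTw Cfsg.Agent.ChevWeyl Cfsg.Agent.ChevU
open Cfsg.Agent.AutChev Cfsg.Agent.Tw4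

variable {K : Type*} [Field K] (Z : Sg K)

theorem fp_sq (t u : K) : fp Z t u * fp Z t u = fp Z 0 (Z.θ t * t) := by
  rw [fp_mul]
  have h2 := Z.two
  congr 1
  · linear_combination t * h2
  · linear_combination u * h2

theorem fp_sq_one {t u : K} (h : fp Z t u * fp Z t u = 1) : t = 0 := by
  rw [fp_sq, ← fp_zero] at h
  have h1 := (fp_inj Z h).2
  rcases mul_eq_zero.1 h1 with h2 | h2
  · exact (map_eq_zero Z.θ).1 h2
  · exact h2

theorem fp_0 (u u' : K) : fp Z 0 u * fp Z 0 u' = fp Z 0 (u + u') := by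
  rw [fp_mul, map_zero, zero_mul, add_zero, add_zero]

theorem fp_split (t u w : K) : fp Z t u * fp Z 0 w = fp Z t (u + w) := by
  rw [fp_mul, mul_zero, add_zero, add_zero]

theorem hfr (hc : ∃ c : Kˣ, c ≠ 1) : ∀ x ∈ (rtw (tF Z)).X (S16.p 1), (∀ k ∈ (rtw (tF Z)).H, k * x * k⁻¹ = x) → x = 1 := by
  obtain ⟨c, hc⟩ := hc
  obtain ⟨h1, h2, h3⟩ := two_ne Z hc
  intro x hx h
  obtain ⟨t, u, rfl⟩ := (mem_p1 Z x).1 hx
  have h4 := h _ (hh0_H Z c)
  rw [hh0_fp] at h4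
  obtain ⟨e1, e2⟩ := fp_inj Z h4
  have e3 : ((c : K)⁻¹ + 1) * t = 0 := by linear_combination e1 + t * Z.two
  have e4 : ((Z.θ c * c : K)⁻¹ + 1) * u = 0 := by linear_combination e2 + u * Z.two
  rw [(mul_eq_zero.1 e3).resolve_left h2, (mul_eq_zero.1 e4).resolve_left h3, fp_zero]

variable {Z}

/-- an automorphism fixing the first block and a root element modulo the centre is trivial -/
theorem eq_refl_of [Finite K] (hc : ∃ c : Kˣ, c ≠ 1) {φ : ↥(tF Z).G1 ≃* ↥(tF Z).G1} (h : PUV (rtw (tF Z)) φ)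
    (hX : ((rtw (tF Z)).X (S16.p 1)).map φ.toMonoidHom = (rtw (tF Z)).X (S16.p 1))
    (hY : ((rtw (tF Z)).X (S16.neg (S16.p 1))).map φ.toMonoidHom = (rtw (tF Z)).X (S16.neg (S16.p 1)))
    (he : ∀ t, φ (ep Z t) = ep Z t) (hn : ∀ t, φ (en Z t) = en Z t) {b : K} (hb : φ (fp Z 1 0) = fp Z 1 b) :
    φ = MulEquiv.refl _ := by
  have hfin : Finite (GL chevF4.Idx K) := inferInstance
  have hh : ∀ c, φ (hh0 Z c) = hh0 Z c := by
    intro c
    rw [hh0_eq]
    simp only [map_mul, he, hn]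
  have hex : ∀ t u, ∃ a v, φ (fp Z t u) = fp Z a v := fun t u =>
    (mem_p1 Z _).1 ((mem_of_map_eq hX).2 ((mem_p1 Z _).2 ⟨t, u, rfl⟩))
  choose A B hAB using hex
  -- the centre
  have hA0 : ∀ u, A 0 u = 0 := by
    intro u
    apply fp_sq_one Z (u := B 0 u)
    rw [← hAB, ← map_mul, fp_sq, map_zero, zero_mul, fp_zero, map_one]
  have hB1 : B 0 1 = 1 := by
    have h1 : φ (fp Z 1 0 * fp Z 1 0) = fp Z 0 1 := by
      rw [map_mul, hb, fp_sq, map_one, one_mul]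
    rw [fp_sq, map_one, one_mul, hAB] at h1
    exact (fp_inj Z h1).2
  have hconj : ∀ (c : Kˣ) (t u : K), A ((c : K)⁻¹ * t) ((Z.θ c * c)⁻¹ * u) = (c : K)⁻¹ * A t u ∧
      B ((c : K)⁻¹ * t) ((Z.θ c * c)⁻¹ * u) = (Z.θ c * c)⁻¹ * B t u := by
    intro c t u
    have h1 := congrArg φ (hh0_fp Z c t u)
    rw [map_mul, map_mul, map_inv, hh, hAB, hAB, hh0_fp] at h1
    obtain ⟨e1, e2⟩ := fp_inj Z h1
    exact ⟨e1.symm, e2.symm⟩
  -- `A t u` depends only on `t`
  have hA : ∀ t u, A t u = A t 0 := by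
    intro t u
    have h1 : φ (fp Z t 0 * fp Z 0 u) = fp Z t 0 * fp Z 0 u ∨ True := Or.inr trivial
    have h2 : φ (fp Z t 0 * fp Z 0 u) = fp Z (A t 0) (B t 0 + B 0 u) := by
      rw [map_mul, hAB, hAB, hA0, fp_split]
    rw [fp_split, zero_add, hAB] at h2
    exact (fp_inj Z h2).1
  have hA1 : A 1 0 = 1 ∧ B 1 0 = b := by
    have h1 := hAB 1 0
    rw [hb] at h1
    obtain ⟨e1, e2⟩ := fp_inj Z h1
    exact ⟨e1.symm, e2.symm⟩
  have hAt : ∀ t u, A t u = t := by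
    intro t u
    by_cases ht : t = 0
    · rw [ht]; exact hA0 u
    · have h1 := (hconj (Units.mk0 t ht)⁻¹ 1 0).1
      rw [mul_zero, mul_one, hA1.1, mul_one, Units.val_inv_eq_inv_val, inv_inv, Units.val_mk0] at h1
      rw [hA, h1]
  -- the centre again: every element is of the form `θ t t`
  have hBc : ∀ w, B 0 w = w := by
    intro w
    have h1 : ∀ t, B 0 (Z.θ t * t) = Z.θ t * t := by
      intro t
      have h2 : φ (fp Z t 0 * fp Z t 0) = fp Z 0 (Z.θ t * t) := by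
        rw [map_mul, hAB, hAt, fp_sq]
      rw [fp_sq, hAB] at h2
      exact (fp_inj Z h2).2
    by_cases hw : w = 0
    · have h2 := h1 0
      rw [mul_zero] at h2
      rw [hw]
      exact h2
    · -- `t = θ(θ w)²/...`
      have hθ0 : Z.θ w ≠ 0 := by rw [ne_eq, map_eq_zero]; exact hw
      have h3 : Z.θ (w ^ 2 * (Z.θ w ^ 2)⁻¹) * (w ^ 2 * (Z.θ w ^ 2)⁻¹) = w := by
        have h5 : Z.θ (Z.θ w) ^ 2 = w := Z.hθ w
        rw [map_mul, map_inv₀, map_pow, map_pow, h5]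
        field_simp
      rw [← h3]
      exact h1 _
  have hBadd : ∀ t u, B t u = u + B t 0 := by
    intro t u
    have h2 : φ (fp Z t 0 * fp Z 0 u) = fp Z (A t 0) (B t 0 + B 0 u) := by
      rw [map_mul, hAB, hAB, hA0, fp_split]
    rw [fp_split, zero_add, hAB, hBc] at h2
    rw [(fp_inj Z h2).2, add_comm]
  have hadd : ∀ t t', B (t + t') 0 = B t 0 + B t' 0 := by
    intro t t'
    have h1 : φ (fp Z t 0 * fp Z t' 0) = fp Z (A t 0 + A t' 0) (B t 0 + B t' 0 + Z.θ (A t 0) * A t' 0) := by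
      rw [map_mul, hAB, hAB, fp_mul]
    rw [fp_mul, hAB, hBadd (t + t'), hAt, hAt, hAt] at h1
    have h2 := (fp_inj Z h1).2
    linear_combination h2
  have hf : ∀ t, t ≠ 0 → B t 0 = Z.θ t * t * B 1 0 := by
    intro t ht
    have h1 := (hconj (Units.mk0 t ht)⁻¹ 1 0).2
    rw [mul_zero, mul_one, Units.val_inv_eq_inv_val, inv_inv, Units.val_mk0, map_inv₀, ← mul_inv, inv_inv] at h1
    exact h1
  have hf1 : B 1 0 = 0 := by
    by_contra hne
    obtain ⟨c, hc⟩ := hc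
    have hθ : ∀ t : K, t ≠ 0 → t ≠ 1 → Z.θ t = t := by
      intro t h0 h1
      have h10 : t + 1 ≠ 0 := by
        intro h; apply h1; linear_combination h - Z.two
      have e1 := hadd t 1
      rw [hf t h0, hf _ h10, map_add, map_one] at e1
      have e2 : (Z.θ t + t) * B 1 0 = 0 := by linear_combination e1
      rcases mul_eq_zero.1 e2 with e3 | e3
      · linear_combination e3 - t * Z.two
      · exact absurd e3 hne
    have hc0 : (c : K) ≠ 0 := Units.ne_zero c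
    have hc1 : (c : K) ≠ 1 := fun h => hc (Units.ext h)
    have e4 := hθ c hc0 hc1
    have e5 := Z.hθ (c : K)
    rw [e4, e4, sq] at e5
    exact hc1 (mul_left_cancel₀ hc0 (e5.trans (mul_one _).symm))
  have hfix : ∀ x ∈ (rtw (tF Z)).X (S16.p 1), φ x = x := by
    intro x hx
    obtain ⟨t, u, rfl⟩ := (mem_p1 Z x).1 hx
    rw [hAB, hAt, hBadd]
    congr 1
    by_cases ht : t = 0
    · rw [ht, hBc, add_zero]
    · rw [hf t ht, hf1, mul_zero, add_zero]
  have hG := rtw_Grp (tF Z)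
  have hP : φ ((rtw (tF Z)).nn 1) ∈ (rtw (tF Z)).mpar 1 := by
    have m1 : ∀ t u, fp Z t u ∈ (rtw (tF Z)).mpar 1 := fun t u =>
      B_le_mpar 1 ((rtw (tF Z)).U_le_B ((rtw (tF Z)).X_le_U (S16.pos_p 1) ((mem_p1 Z _).2 ⟨t, u, rfl⟩)))
    have m2 : ∀ t u, φ (fn Z t u) ∈ (rtw (tF Z)).mpar 1 := fun t u =>
      Xneg_le_mpar 1 ((mem_of_map_eq hY).2 ((mem_n1 Z _).2 ⟨t, u, rfl⟩))
    have m3 : ∀ t u, φ (fp Z t u) ∈ (rtw (tF Z)).mpar 1 := fun t u => by rw [hAB]; exact m1 _ _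
    rw [nn1_eq, map_mul, map_mul, map_mul, map_mul]
    exact mul_mem (mul_mem (mul_mem (mul_mem (m3 _ _) (m2 _ _)) (m3 _ _)) (m2 _ _)) (m3 _ _)
  have hneg := fix_neg h hG hP (hfr Z hc) hfix
  refine eq_of_agree (tF Z) (θ' := MulEquiv.refl _) (fun j x hx => ?_) (fun j x hx => ?_)
  · rcases j_cases j with rfl | rfl
    · obtain ⟨t, rfl⟩ := (mem_p0 Z x).1 hx
      exact he t
    · exact hfix x hx
  · rcases j_cases j with rfl | rfl
    · obtain ⟨t, rfl⟩ := (mem_n0 Z x).1 hx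
      exact hn t
    · exact hneg x hx

end Cfsg.Agent.AutTF4
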